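import Mathlib
import Cfsg.Agent.Lib.Coprime.FTHyp

/-!
# `C_π` is closed under extensions (given the odd order theorem)
-/

set_option autoImplicit false

namespace Cfsg.Agent.Coprime

open Subgroup

universe u

variable {π : Set ℕ} {G : Type*} [Group G] [Finite G]

theorem exists_conj_of_isCPiGroup {A : Subgroup G} (hA : IsCPiGroup π A) {H K : Subgroup G}
    (hH : IsPiHallOf π H A) (hK : IsPiHallOf π K A) :
    ∃ a ∈ A, K = H.map (MulAut.conj a).toMonoidHom := by
  obtain ⟨a, ha⟩ := hA.2 _ _ (isPiHallOf_iff_subgroupOf.1 hH).2 (isPiHallOf_iff_subgroupOf.1 hK).2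
  refine ⟨a, a.2, ?_⟩
  have := congrArg (Subgroup.map A.subtype) ha
  rwa [map_map_conj, subgroupOf_map_subtype, subgroupOf_map_subtype, inf_eq_left.2 hH.1,
    inf_eq_left.2 hK.1] at this

theorem frattini_of_isCPiGroup {A : Subgroup G} [A.Normal] (hA : IsCPiGroup π A) {H : Subgroup G}
    (hH : IsPiHallOf π H A) (g : G) : ∃ a ∈ A, a⁻¹ * g ∈ normalizer (H : Set G) := by
  have hg : g ∈ normalizer (A : Set G) := by rw [normalizer_eq_top]; trivial
  obtain ⟨a, ha, e⟩ := exists_conj_of_isCPiGroup hA hH (isPiHallOf_map_conj hH hg)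
  refine ⟨a, ha, ?_⟩
  have e2 := congrArg (Subgroup.map (MulAut.conj a⁻¹).toMonoidHom) e
  rw [map_conj_map_conj, map_conj_map_conj, inv_mul_cancel, map_conj_one] at e2
  rw [mem_normalizer_iff]
  intro x
  conv_rhs => rw [← e2, mem_map_conj_iff]
  constructor
  · intro hx; convert hx using 1; group
  · intro hx; convert hx using 1; group

theorem isPiSeparable_inf_normalizer {A : Subgroup G} [A.Normal] {H L : Subgroup G}
    (hH : IsPiHallOf π H A) (hAL : A ≤ L) (hL : IsPiNum π (A.relIndex L)) :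
    IsPiSeparable π ↥(L ⊓ normalizer (H : Set G)) := by
  set M := L ⊓ normalizer (H : Set G) with hM
  have hHM : H ≤ M := le_inf (hH.1.trans hAL) le_normalizer
  have h1 : IsPiSeparable π ↥(A ⊓ M) := by
    haveI : (H.subgroupOf (A ⊓ M)).Normal :=
      normal_subgroupOf_of_le_normalizer (inf_le_right.trans inf_le_right)
    refine isPiSeparable_of_normal_of_quotient (H.subgroupOf (A ⊓ M))
      (isPiSeparable_of_isPiNum ((isPiHallOf_iff.1 hH).2.1.of_dvd (card_subgroupOf_dvd _ _)))
      (isPiSeparable_of_isPiNum_compl ?_)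
    change IsPiNum πᶜ (H.relIndex (A ⊓ M))
    exact (isPiHallOf_iff.1 (isPiHallOf_mono hH (le_inf hH.1 hHM) inf_le_left)).2.2
  refine isPiSeparable_of_normal_of_quotient (A.subgroupOf M) ?_ (isPiSeparable_of_isPiNum ?_)
  · rw [← inf_subgroupOf_right]
    exact h1.of_injective (subgroupOfEquivOfLe (H := A ⊓ M) (K := M) inf_le_right).toMonoidHom
      (subgroupOfEquivOfLe (H := A ⊓ M) (K := M) inf_le_right).injective
  · change IsPiNum π (A.relIndex M)
    exact hL.of_dvd (relIndex_dvd_of_le_right_of_normal inf_le_left)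

theorem FT.isCPiGroup_of_normal (ft : FT.{u}) (π : Set ℕ) (A : Subgroup G) [A.Normal]
    (hA : IsCPiGroup π A) (hQ : IsCPiGroup π (G ⧸ A)) : IsCPiGroup π G := by
  obtain ⟨H0', hH0'⟩ := hA.1
  have hH0 := isPiHallOf_map_subtype hH0'
  set H0 := H0'.map A.subtype with hH0def
  set N := normalizer (H0 : Set G) with hN
  have hker : ∀ L : Subgroup G, A ≤ L →
      A.relIndex L = Nat.card (L.map (QuotientGroup.mk' A)) := by
    intro L _
    have := relIndex_ker L (QuotientGroup.mk' A)
    rwa [QuotientGroup.ker_mk'] at this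
  constructor
  · obtain ⟨Kb, hKb⟩ := hQ.1
    set K := Kb.comap (QuotientGroup.mk' A) with hK
    have hAK : A ≤ K := by
      intro a ha
      rw [hK, mem_comap, QuotientGroup.mk'_apply, (QuotientGroup.eq_one_iff a).2 ha]
      exact one_mem _
    have hKm : K.map (QuotientGroup.mk' A) = Kb :=
      map_comap_eq_self_of_surjective (QuotientGroup.mk'_surjective A) _
    have hsep := isPiSeparable_inf_normalizer hH0 hAK
      (by rw [hker K hAK, hKm]; exact (isPiHall_iff.1 hKb).1)
    obtain ⟨L, hL⟩ := exists_isPiHall hsep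
    refine ⟨_, isPiHallOf_top.1 (isPiHallOf_trans (isPiHallOf_map_subtype hL) le_top ?_)⟩
    rw [relIndex_top_right, ← relIndex_mul_index (inf_le_left : K ⊓ N ≤ K)]
    refine IsPiNum.mul ?_ ?_
    · -- `K = A (K ⊓ N)`
      have hsup : (K ⊓ N) ⊔ A = K := by
        refine le_antisymm (sup_le inf_le_left hAK) fun g hg => ?_
        obtain ⟨a, ha, hn⟩ := frattini_of_isCPiGroup hA hH0 g
        have : g = a * (a⁻¹ * g) := by group
        rw [this]
        exact mul_mem (mem_sup_right ha) (mem_sup_left (mem_inf.2 ⟨K.mul_mem (K.inv_mem (hAK ha)) hg, hn⟩))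
      have h1 : (K ⊓ N).relIndex K = (K ⊓ N).relIndex A := by
        have e1 := relIndex_mul_relIndex (K ⊓ N ⊓ A) (K ⊓ N) K inf_le_left inf_le_left
        have e2 := relIndex_mul_relIndex (K ⊓ N ⊓ A) A K inf_le_right hAK
        have e3 : A.relIndex K = A.relIndex (K ⊓ N) := by
          conv_lhs => rw [← hsup]
          exact relIndex_sup_right _ _
        rw [inf_relIndex_left] at e1
        rw [inf_relIndex_right, e3, ← e1, mul_comm] at e2
        have : A.relIndex (K ⊓ N) ≠ 0 := index_ne_zero_of_finite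
        exact (Nat.eq_of_mul_eq_mul_left (Nat.pos_of_ne_zero this) e2).symm
      rw [h1]
      refine (isPiHallOf_iff.1 hH0).2.2.of_dvd (relIndex_dvd_of_le_left A ?_)
      exact le_inf (hH0.1.trans hAK) le_normalizer
    · rw [hK, index_comap_of_surjective _ (QuotientGroup.mk'_surjective A)]
      exact (isPiHall_iff.1 hKb).2
  · -- every Hall subgroup has a conjugate meeting `A` in `H0`
    have h1 : ∀ H : Subgroup G, IsPiHall π H → ∃ g : G,
        (H.map (MulAut.conj g).toMonoidHom) ⊓ A = H0 := by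
      intro H hH
      obtain ⟨a, ha, e⟩ := exists_conj_of_isCPiGroup hA (isPiHallOf_inf_of_normal hH A) hH0
      refine ⟨a, ?_⟩
      rw [e, map_inf _ _ _ (MulAut.conj a).injective, map_conj_eq_of_normal A]
    have h2 : ∀ H : Subgroup G, H ⊓ A = H0 → H ≤ N := by
      intro H e h hh
      rw [hN, ← e, mem_normalizer_iff]
      intro x
      constructor
      · rintro ⟨hx1, hx2⟩
        exact ⟨H.mul_mem (H.mul_mem hh hx1) (H.inv_mem hh), ‹A.Normal›.conj_mem x hx2 h⟩
      · rintro ⟨hx1, hx2⟩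
        refine ⟨?_, ?_⟩
        · have := H.mul_mem (H.mul_mem (H.inv_mem hh) hx1) hh
          simpa [mul_assoc] using this
        · have := ‹A.Normal›.conj_mem _ hx2 h⁻¹
          simpa [mul_assoc] using this
    have key : ∀ H K : Subgroup G, IsPiHall π H → IsPiHall π K → H ≤ N → K ≤ N →
        ∃ g : G, K = H.map (MulAut.conj g).toMonoidHom := by
      intro H K hH hK hHN hKN
      obtain ⟨gb, e⟩ := hQ.2 _ _ (isPiHall_map hH _ (QuotientGroup.mk'_surjective A))
        (isPiHall_map hK _ (QuotientGroup.mk'_surjective A))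
      obtain ⟨g, rfl⟩ := QuotientGroup.mk'_surjective A gb
      obtain ⟨a, ha, hn⟩ := frattini_of_isCPiGroup hA hH0 g
      set n := a⁻¹ * g with hndef
      have hgn : QuotientGroup.mk' A g = QuotientGroup.mk' A n := by
        rw [hndef, map_mul, map_inv, QuotientGroup.mk'_apply A a,
          (QuotientGroup.eq_one_iff a).2 ha, inv_one, one_mul]
      rw [hgn, ← map_map_conj] at e
      set H1 := H.map (MulAut.conj n).toMonoidHom with hH1
      have hH1h : IsPiHall π H1 := isPiHall_map_conj hH n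
      have hH1N : H1 ≤ N := by
        rintro _ ⟨x, hx, rfl⟩
        exact mul_mem (mul_mem hn (hHN hx)) (inv_mem hn)
      have hsup : K ⊔ A = H1 ⊔ A := by
        have := congrArg (Subgroup.comap (QuotientGroup.mk' A)) e
        rwa [comap_map_eq, comap_map_eq, QuotientGroup.ker_mk'] at this
      have hsep := isPiSeparable_inf_normalizer hH0 (le_sup_right : A ≤ K ⊔ A) (by
        rw [relIndex_sup_right]
        exact (isPiHall_iff.1 hK).1.of_dvd (relIndex_dvd_card _ _))
      have hKM : K ≤ (K ⊔ A) ⊓ N := le_inf le_sup_left hKN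
      have hH1M : H1 ≤ (K ⊔ A) ⊓ N := le_inf (hsup ▸ le_sup_left) hH1N
      obtain ⟨m, hm⟩ := ft.exists_conj_of_isPiHall hsep
        (isPiHallOf_iff_subgroupOf.1 (isPiHallOf_of_isPiHall hH1h hH1M)).2
        (isPiHallOf_iff_subgroupOf.1 (isPiHallOf_of_isPiHall hK hKM)).2
      have := congrArg (Subgroup.map ((K ⊔ A) ⊓ N).subtype) hm
      rw [map_map_conj, subgroupOf_map_subtype, subgroupOf_map_subtype, inf_eq_left.2 hKM,
        inf_eq_left.2 hH1M, hH1, map_conj_map_conj] at this
      exact ⟨_, this⟩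
    intro H K hH hK
    obtain ⟨g, hg⟩ := h1 H hH
    obtain ⟨k, hk⟩ := h1 K hK
    obtain ⟨x, hx⟩ := key _ _ (isPiHall_map_conj hH g) (isPiHall_map_conj hK k) (h2 _ hg) (h2 _ hk)
    refine ⟨k⁻¹ * (x * g), ?_⟩
    have := congrArg (Subgroup.map (MulAut.conj k⁻¹).toMonoidHom) hx
    rwa [map_conj_map_conj, map_conj_map_conj, map_conj_map_conj, inv_mul_cancel,
      map_conj_one, mul_assoc] at this

end Cfsg.Agent.Coprime
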